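import Cfsg.Agent.Lib.SchurAlt.Small
import Mathlib

/-! Lifting perfect subgroups through central extensions. -/

set_option autoImplicit false

namespace Cfsg.Agent.Lib.SchurAlt

open Subgroup
open scoped commutatorElement

section Lift

variable {Γ H : Type*} [Group Γ] [Group H] (f : Γ →* H)

/-- The commutator subgroup of the preimage of `A`. -/
def liftL (A : Subgroup H) : Subgroup Γ := ⁅A.comap f, A.comap f⁆

variable {f} {A : Subgroup H}

theorem map_comap_of_le (hA : A ≤ f.range) : (A.comap f).map f = A := by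
  rw [Subgroup.map_comap_eq, inf_eq_right.mpr hA]

theorem map_liftL (hA : A ≤ f.range) (hp : ⁅A, A⁆ = A) : (liftL f A).map f = A := by
  rw [liftL, map_commutator, map_comap_of_le hA, hp]

theorem liftL_le_comap (A : Subgroup H) : liftL f A ≤ A.comap f := by
  rw [liftL, commutator_le]
  intro x hx y hy
  rw [commutatorElement_def]
  exact mul_mem (mul_mem (mul_mem hx hy) (inv_mem hx)) (inv_mem hy)

theorem exists_lift (hA : A ≤ f.range) (hp : ⁅A, A⁆ = A) {u : Γ} (hu : f u ∈ A) :
    ∃ l ∈ liftL f A, ∃ z ∈ f.ker, u = l * z := by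
  have : f u ∈ (liftL f A).map f := by rw [map_liftL hA hp]; exact hu
  obtain ⟨l, hl, hlu⟩ := this
  refine ⟨l, hl, l⁻¹ * u, ?_, by group⟩
  rw [MonoidHom.mem_ker, map_mul, map_inv, hlu, inv_mul_cancel]

theorem comm_mul_central {x y a b : Γ} (ha : a ∈ center Γ) (hb : b ∈ center Γ) :
    ⁅x * a, y * b⁆ = ⁅x, y⁆ := by
  have ha' := mem_center_iff.mp ha
  have hb' := mem_center_iff.mp hb
  have hab : a⁻¹ ∈ center Γ := inv_mem ha
  have hbb : b⁻¹ ∈ center Γ := inv_mem hb
  have ha2 := mem_center_iff.mp hab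
  have hb2 := mem_center_iff.mp hbb
  rw [commutatorElement_def, commutatorElement_def]
  calc x * a * (y * b) * (x * a)⁻¹ * (y * b)⁻¹
      = x * (a * y) * b * (a⁻¹ * x⁻¹) * (b⁻¹ * y⁻¹) := by group
    _ = x * (y * a) * b * (a⁻¹ * x⁻¹) * (b⁻¹ * y⁻¹) := by rw [ha' y]
    _ = x * y * (a * (b * a⁻¹)) * x⁻¹ * (b⁻¹ * y⁻¹) := by group
    _ = x * y * (a * (a⁻¹ * b)) * x⁻¹ * (b⁻¹ * y⁻¹) := by rw [ha2 b]
    _ = x * y * (b * x⁻¹) * (b⁻¹ * y⁻¹) := by group
    _ = x * y * (x⁻¹ * b) * (b⁻¹ * y⁻¹) := by rw [hb' x⁻¹]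
    _ = x * y * x⁻¹ * y⁻¹ := by group

theorem perfect_liftL (hc : f.ker ≤ center Γ) (hA : A ≤ f.range) (hp : ⁅A, A⁆ = A) :
    ⁅liftL f A, liftL f A⁆ = liftL f A := by
  apply le_antisymm
  · rw [commutator_le]
    intro x hx y hy
    rw [commutatorElement_def]
    exact mul_mem (mul_mem (mul_mem hx hy) (inv_mem hx)) (inv_mem hy)
  · conv_lhs => rw [liftL]
    rw [commutator_le]
    intro x hx y hy
    obtain ⟨l₁, hl₁, z₁, hz₁, rfl⟩ := exists_lift hA hp (u := x) hx
    obtain ⟨l₂, hl₂, z₂, hz₂, rfl⟩ := exists_lift hA hp (u := y) hy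
    rw [comm_mul_central (hc hz₁) (hc hz₂)]
    exact commutator_mem_commutator hl₁ hl₂

/-- Lifts of a perfect subgroup commute with the lifts of anything centralizing it. -/
theorem commute_of_lift (hc : f.ker ≤ center Γ) (hA : A ≤ f.range) (hp : ⁅A, A⁆ = A) {u w : Γ}
    (hu : f u ∈ A) (hw : ∀ a ∈ A, a * f w = f w * a) : u * w = w * u := by
  have hz : ∀ x, f x ∈ A → w * x * w⁻¹ = x * (x⁻¹ * (w * x * w⁻¹)) ∧
      x⁻¹ * (w * x * w⁻¹) ∈ center Γ := by
    intro x hx
    refine ⟨by group, hc ?_⟩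
    rw [MonoidHom.mem_ker, map_mul, map_inv, map_mul, map_mul, map_inv, ← hw _ hx]
    group
  have hL : liftL f A ≤ centralizer {w} := by
    rw [liftL, commutator_le]
    intro x hx y hy
    obtain ⟨h1, h2⟩ := hz x hx
    obtain ⟨h3, h4⟩ := hz y hy
    have e : w * ⁅x, y⁆ * w⁻¹ = ⁅w * x * w⁻¹, w * y * w⁻¹⁆ := by
      simp only [commutatorElement_def]; group
    rw [h1, h3, comm_mul_central h2 h4] at e
    rw [mem_centralizer_singleton_iff]
    calc ⁅x, y⁆ * w = (w * ⁅x, y⁆ * w⁻¹) * w := by rw [e]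
      _ = w * ⁅x, y⁆ := by group
  obtain ⟨l, hl, z, hz', rfl⟩ := exists_lift hA hp hu
  have h1 := mem_centralizer_singleton_iff.mp (hL hl)
  have h2 := mem_center_iff.mp (hc hz') w
  calc l * z * w = l * (z * w) := by group
    _ = l * (w * z) := by rw [h2]
    _ = (l * w) * z := by group
    _ = (w * l) * z := by rw [h1]
    _ = w * (l * z) := by group

/-- The kernel of a perfect central lift of a subgroup of order dividing `60` has order at most `2`. -/
theorem card_inf_ker_le_two [Finite Γ] (hc : f.ker ≤ center Γ) (hA : A ≤ f.range)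
    (hp : ⁅A, A⁆ = A) (h60 : Nat.card A ∣ 60) : Nat.card (liftL f A ⊓ f.ker : Subgroup Γ) ≤ 2 := by
  set L := liftL f A with hLdef
  set g : L →* H := f.comp L.subtype with hg
  have hcen : g.ker ≤ center L := by
    intro x hx
    have hx' : (x : Γ) ∈ f.ker := hx
    rw [mem_center_iff]
    intro y
    apply Subtype.ext
    exact (mem_center_iff.mp (hc hx')) y
  have htop : commutator L = ⊤ := by
    have hmap : (commutator L).map L.subtype = L := by
      rw [commutator_def, map_commutator]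
      have : (⊤ : Subgroup L).map L.subtype = L := by rw [← MonoidHom.range_eq_map, Subgroup.range_subtype]
      rw [this]
      exact perfect_liftL hc hA hp
    rw [eq_top_iff]
    intro x _
    have : (x : Γ) ∈ (commutator L).map L.subtype := by rw [hmap]; exact x.2
    obtain ⟨y, hy, hxy⟩ := this
    have : y = x := Subtype.ext hxy
    rwa [← this]
  have hd : g.ker ≤ commutator L := by rw [htop]; exact le_top
  have hr : g.range = A := by
    apply le_antisymm
    · rintro _ ⟨x, rfl⟩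
      exact (liftL_le_comap A x.2 : f x ∈ A)
    · intro a ha
      have : a ∈ L.map f := by rw [hLdef, map_liftL hA hp]; exact ha
      obtain ⟨l, hl, rfl⟩ := this
      exact ⟨⟨l, hl⟩, rfl⟩
  have h2 := card_ker_le_two g hcen hd (by rw [hr]; exact h60)
  have hm : g.ker.map L.subtype = L ⊓ f.ker := by
    apply le_antisymm
    · rintro _ ⟨x, hx, rfl⟩
      exact ⟨x.2, hx⟩
    · rintro x ⟨h1, h2⟩
      exact ⟨⟨x, h1⟩, h2, rfl⟩
  rw [← hm, Subgroup.card_map_of_injective L.subtype_injective]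
  exact h2

end Lift

end Cfsg.Agent.Lib.SchurAlt
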