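import Mathlib

/-! Permutation identities for the Carmichael generators `(0 1 k)`, and alternating subgroups
on subsets. -/

set_option autoImplicit false

namespace Cfsg.Agent.Lib.SchurAlt

open Subgroup Equiv Equiv.Perm

variable {α : Type*} [DecidableEq α] [Fintype α]

/-- `t k = swap p0 p1 * swap p0 k`. -/
def tc (p0 p1 k : α) : Perm α := swap p0 p1 * swap p0 k

theorem tc_sign {p0 p1 k : α} (h01 : p0 ≠ p1) (h0k : p0 ≠ k) : sign (tc p0 p1 k) = 1 := by
  rw [tc, map_mul, sign_swap h01, sign_swap h0k]; rfl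

theorem tc_cube {p0 p1 k : α} (h01 : p0 ≠ p1) (h0k : p0 ≠ k) (h1k : p1 ≠ k) :
    tc p0 p1 k ^ 3 = 1 := by
  have h := (isThreeCycle_swap_mul_swap_same h01 h0k h1k).orderOf
  rw [tc, ← h]
  exact pow_orderOf_eq_one _

theorem tc_conj {p0 p1 : α} (k : α) (g : Perm α) (h0 : g p0 = p0) (h1 : g p1 = p1) :
    g * tc p0 p1 k * g⁻¹ = tc p0 p1 (g k) := by
  have e0 := swap_apply_apply g p0 p1
  have e1 := swap_apply_apply g p0 k
  rw [h0, h1] at e0
  rw [h0] at e1
  rw [tc, tc, e1]
  nth_rewrite 2 [e0]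
  group

theorem tc_sq {p0 p1 k l : α} (h0k : p0 ≠ k) (h1k : p1 ≠ k) (h0l : p0 ≠ l) (h1l : p1 ≠ l)
    (hkl : k ≠ l) (h01 : p0 ≠ p1) : (tc p0 p1 k * tc p0 p1 l) ^ 2 = 1 := by
  have e : tc p0 p1 k * tc p0 p1 l = swap p1 k * swap p0 l := by
    have e0 := swap_apply_apply (swap p0 p1) p0 k
    rw [swap_apply_left, swap_apply_of_ne_of_ne h0k.symm h1k.symm, swap_inv] at e0
    rw [e0]
    simp only [tc, mul_assoc]
  have hc : Commute (swap p1 k) (swap p0 l) :=
    (disjoint_swap_swap (by simp [h01.symm, h1k, h1l, h0k.symm, hkl, h0l])).commute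
  rw [e, hc.mul_pow, pow_two, pow_two, swap_mul_self, swap_mul_self, one_mul]

/-- The Carmichael generators generate the alternating group. -/
theorem mem_closure_tc {p0 p1 : α} (h01 : p0 ≠ p1) {σ : Perm α} (hσ : sign σ = 1) :
    σ ∈ closure ((tc p0 p1) '' {k | k ≠ p0 ∧ k ≠ p1}) := by
  set T := closure ((tc p0 p1) '' {k | k ≠ p0 ∧ k ≠ p1}) with hT
  set c := swap p0 p1 with hc
  have hcc : c * c = 1 := swap_mul_self _ _
  have hcinv : c⁻¹ = c := swap_inv _ _
  have ht : ∀ k, k ≠ p0 → k ≠ p1 → tc p0 p1 k ∈ T := fun k h0 h1 => subset_closure ⟨k, ⟨h0, h1⟩, rfl⟩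
  have htinv : ∀ k, (tc p0 p1 k)⁻¹ = swap p0 k * c := by
    intro k
    rw [tc, mul_inv_rev, swap_inv, hcinv]
  have hconj : ∀ x ∈ T, c * x * c ∈ T := by
    intro x hx
    induction hx using closure_induction with
    | mem x hx =>
      obtain ⟨k, ⟨h0, h1⟩, rfl⟩ := hx
      have : c * tc p0 p1 k * c = (tc p0 p1 k)⁻¹ := by
        rw [htinv, tc, ← hc, ← mul_assoc, hcc, one_mul]
      rw [this]
      exact inv_mem (ht k h0 h1)
    | one => rw [mul_one, hcc]; exact one_mem _
    | mul x y _ _ hx hy =>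
      have : c * (x * y) * c = (c * x * c) * (c * y * c) := by
        calc c * (x * y) * c = c * x * 1 * y * c := by group
          _ = c * x * (c * c) * y * c := by rw [hcc]
          _ = (c * x * c) * (c * y * c) := by group
      rw [this]
      exact mul_mem hx hy
    | inv x _ hx =>
      have : c * x⁻¹ * c = (c * x * c)⁻¹ := by
        simp only [mul_inv_rev, hcinv, mul_assoc]
      rw [this]
      exact inv_mem hx
  have h0k : ∀ k, k ≠ p0 → k ≠ p1 → swap p0 k * c ∈ T := by
    intro k h0 h1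
    rw [← htinv]
    exact inv_mem (ht k h0 h1)
  have h1k : ∀ k, k ≠ p0 → k ≠ p1 → swap p1 k * c ∈ T := by
    intro k h0 h1
    have e0 := swap_apply_apply c p0 k
    rw [hc, swap_apply_left, swap_apply_of_ne_of_ne h0 h1, swap_inv, ← hc] at e0
    rw [e0, mul_assoc, hcc, mul_one]
    exact ht k h0 h1
  have hone : swap p0 p1 * c = 1 := hcc
  have hswap : ∀ a b, a ≠ b → swap a b * c ∈ T := by
    intro a b hab
    by_cases ha0 : a = p0
    · subst ha0
      by_cases hb1 : b = p1
      · subst hb1; rw [hone]; exact one_mem _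
      · exact h0k b (Ne.symm hab) hb1
    by_cases ha1 : a = p1
    · subst ha1
      by_cases hb0 : b = p0
      · subst hb0; rw [swap_comm, hone]; exact one_mem _
      · exact h1k b hb0 (Ne.symm hab)
    by_cases hb0 : b = p0
    · subst hb0; rw [swap_comm]; exact h0k a ha0 ha1
    by_cases hb1 : b = p1
    · subst hb1; rw [swap_comm]; exact h1k a ha0 ha1
    have e0 := swap_apply_apply (swap p0 a) p0 b
    rw [swap_apply_left, swap_apply_of_ne_of_ne hb0 (Ne.symm hab), swap_inv] at e0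
    have e1 : swap a b * c = (swap p0 a * c) * tc p0 p1 b * (swap p0 a * c) := by
      rw [e0, tc, ← hc]
      calc swap p0 a * swap p0 b * swap p0 a * c
          = swap p0 a * 1 * swap p0 b * swap p0 a * c := by rw [mul_one]
        _ = swap p0 a * (c * c) * swap p0 b * swap p0 a * c := by rw [hcc]
        _ = _ := by group
    rw [e1]
    exact mul_mem (mul_mem (h0k a ha0 ha1) (ht b hb0 hb1)) (h0k a ha0 ha1)
  have hmain : ∀ τ : Perm α, τ ∈ T ∨ τ * c ∈ T := by
    intro τ
    induction τ using swap_induction_on with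
    | one => left; exact one_mem _
    | swap_mul f x y hxy ih =>
      rcases ih with h | h
      · right
        have : swap x y * f * c = (swap x y * c) * (c * f * c) := by
          calc swap x y * f * c = swap x y * 1 * f * c := by rw [mul_one]
            _ = swap x y * (c * c) * f * c := by rw [hcc]
            _ = _ := by group
        rw [this]
        exact mul_mem (hswap x y hxy) (hconj f h)
      · left
        have : swap x y * f = (swap x y * c) * (c * (f * c) * c) := by
          calc swap x y * f = swap x y * 1 * f * 1 := by rw [mul_one, mul_one]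
            _ = swap x y * (c * c) * f * (c * c) := by rw [hcc]
            _ = _ := by group
        rw [this]
        exact mul_mem (hswap x y hxy) (hconj _ h)
  have hsign : ∀ x ∈ T, sign x = 1 := by
    intro x hx
    have : T ≤ (sign : Perm α →* ℤˣ).ker := by
      rw [hT, closure_le]
      rintro _ ⟨k, ⟨h0, _⟩, rfl⟩
      exact tc_sign h01 (Ne.symm h0)
    exact this hx
  rcases hmain σ with h | h
  · exact h
  · have := hsign _ h
    rw [map_mul, hσ, one_mul, hc, sign_swap h01] at this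
    exact absurd this (by decide)

/-- Even permutations fixing two points with prescribed images of two more. -/
theorem exists_fix {p0 p1 p2 p3 p4 p5 k l : α}
    (h0k : p0 ≠ k) (h1k : p1 ≠ k) (h0l : p0 ≠ l) (h1l : p1 ≠ l) (hkl : k ≠ l)
    (h02 : p0 ≠ p2) (h12 : p1 ≠ p2) (h03 : p0 ≠ p3) (h13 : p1 ≠ p3) (h23 : p2 ≠ p3)
    (h04 : p0 ≠ p4) (h05 : p0 ≠ p5) (h14 : p1 ≠ p4) (h15 : p1 ≠ p5)
    (h24 : p2 ≠ p4) (h25 : p2 ≠ p5) (h34 : p3 ≠ p4) (h35 : p3 ≠ p5) (h45 : p4 ≠ p5) :
    ∃ h : Perm α, sign h = 1 ∧ h p0 = p0 ∧ h p1 = p1 ∧ h k = p2 ∧ h l = p3 := by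
  set s1 := swap k p2 with hs1
  have s10 : s1 p0 = p0 := swap_apply_of_ne_of_ne h0k h02
  have s11 : s1 p1 = p1 := swap_apply_of_ne_of_ne h1k h12
  have s1k : s1 k = p2 := swap_apply_left _ _
  set m := s1 l with hm
  have hm0 : p0 ≠ m := fun e => h0l (s1.injective (by rw [s10]; exact e))
  have hm1 : p1 ≠ m := fun e => h1l (s1.injective (by rw [s11]; exact e))
  have hm2 : p2 ≠ m := fun e => hkl (s1.injective (by rw [s1k]; exact e))
  set s2 := swap m p3 with hs2
  have s20 : s2 p0 = p0 := swap_apply_of_ne_of_ne hm0 h03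
  have s21 : s2 p1 = p1 := swap_apply_of_ne_of_ne hm1 h13
  have s22 : s2 p2 = p2 := swap_apply_of_ne_of_ne hm2 h23
  have s2m : s2 m = p3 := swap_apply_left _ _
  set h0 := s2 * s1 with hh0
  have v0 : h0 p0 = p0 := by rw [hh0, mul_apply, s10, s20]
  have v1 : h0 p1 = p1 := by rw [hh0, mul_apply, s11, s21]
  have vk : h0 k = p2 := by rw [hh0, mul_apply, s1k, s22]
  have vl : h0 l = p3 := by rw [hh0, mul_apply, ← hm, s2m]
  rcases Int.units_eq_one_or (sign h0) with hs | hs
  · exact ⟨h0, hs, v0, v1, vk, vl⟩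
  · refine ⟨swap p4 p5 * h0, ?_, ?_, ?_, ?_, ?_⟩
    · rw [map_mul, sign_swap h45, hs]; rfl
    · rw [mul_apply, v0]; exact swap_apply_of_ne_of_ne h04 h05
    · rw [mul_apply, v1]; exact swap_apply_of_ne_of_ne h14 h15
    · rw [mul_apply, vk]; exact swap_apply_of_ne_of_ne h24 h25
    · rw [mul_apply, vl]; exact swap_apply_of_ne_of_ne h34 h35

/-- The even permutations supported on a subset. -/
def Bs (p : α → Prop) [DecidablePred p] : Subgroup (Perm α) :=
  (alternatingGroup {x // p x}).map (ofSubtype : Perm {x // p x} →* Perm α)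

theorem perfect_Bs (p : α → Prop) [DecidablePred p] (h5 : 5 ≤ Nat.card {x // p x}) :
    ⁅Bs p, Bs p⁆ = Bs p := by
  rw [Bs, ← map_commutator, commutator_alternatingGroup_eq_self h5]

theorem mem_Bs_iff {p : α → Prop} [DecidablePred p] {σ : Perm α} :
    σ ∈ Bs p ↔ sign σ = 1 ∧ ∀ x, ¬ p x → σ x = x := by
  constructor
  · rintro ⟨τ, hτ, rfl⟩
    refine ⟨?_, fun x hx => ofSubtype_apply_of_not_mem τ hx⟩
    rw [sign_ofSubtype]
    exact hτ
  · rintro ⟨h1, h2⟩
    have : σ ∈ (ofSubtype : Perm {x // p x} →* Perm α).range := by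
      rw [mem_range_ofSubtype_iff]
      intro x hx
      by_contra hc
      exact (mem_support.mp (Finset.mem_coe.mp hx)) (h2 x hc)
    obtain ⟨τ, rfl⟩ := this
    refine ⟨τ, ?_, rfl⟩
    rw [sign_ofSubtype] at h1
    exact h1

theorem card_Bs (p : α → Prop) [DecidablePred p] :
    Nat.card (Bs p) = Nat.card (alternatingGroup {x // p x}) :=
  Subgroup.card_map_of_injective ofSubtype_injective

end Cfsg.Agent.Lib.SchurAlt
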