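import Cfsg.Agent.Lib.SchurAlt.Pres
import Cfsg.Agent.Lib.SchurAlt.Lift
import Cfsg.Agent.Lib.SchurAlt.PermFacts
import Mathlib

/-! The order of a stem extension of the alternating group of degree at least `8` (Schur). -/

set_option autoImplicit false

namespace Cfsg.Agent.Lib.SchurAlt

open Subgroup Equiv Equiv.Perm
open scoped commutatorElement

variable {Γ : Type*} [Group Γ] {n : ℕ}

/-- Counting: the relations modulo `E` bound the order of the kernel by `|E|`. -/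
theorem final_count [Finite Γ] (f : Γ →* Perm (Fin n))
    (hr : f.range = alternatingGroup (Fin n)) (hc : f.ker ≤ center Γ) (hd : f.ker ≤ commutator Γ)
    {p0 p1 : Fin n} (hp0 : p0.val = 0) (hp1 : p1.val = 1) (hn : 2 ≤ n)
    (E : Subgroup Γ) (hE : E ≤ f.ker) (s : Fin n → Γ)
    (hs : ∀ k, k ≠ p0 → k ≠ p1 → f (s k) = tc p0 p1 k)
    (hcube : ∀ k, k ≠ p0 → k ≠ p1 → s k ^ 3 ∈ E)
    (hsq : ∀ k l, k ≠ p0 → k ≠ p1 → l ≠ p0 → l ≠ p1 → k ≠ l → (s k * s l) ^ 2 ∈ E) :
    Nat.card f.ker ≤ Nat.card E := by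
  classical
  have h01 : p0 ≠ p1 := fun e => by have := congrArg Fin.val e; omega
  have hEn : E.Normal := by
    constructor
    intro x hx g
    have := (mem_center_iff.mp (hc (hE hx))) g
    rw [this, mul_assoc, mul_inv_cancel, mul_one]
    exact hx
  set S : Set Γ := s '' {k | k ≠ p0 ∧ k ≠ p1} with hS
  set H := closure S with hH
  have hmapH : H.map f = f.range := by
    rw [hH, MonoidHom.map_closure, hr]
    apply le_antisymm
    · rw [closure_le]
      rintro _ ⟨_, ⟨k, ⟨h0, h1⟩, rfl⟩, rfl⟩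
      show f (s k) ∈ alternatingGroup (Fin n)
      rw [hs k h0 h1]
      exact tc_sign h01 (Ne.symm h0)
    · intro σ hσ
      have h1 := mem_closure_tc h01 (σ := σ) hσ
      have hsub : (tc p0 p1) '' {k | k ≠ p0 ∧ k ≠ p1} ⊆ f '' S := by
        rintro _ ⟨k, ⟨h0, h1⟩, rfl⟩
        exact ⟨s k, ⟨k, ⟨h0, h1⟩, rfl⟩, hs k h0 h1⟩
      exact closure_mono hsub h1
  have hdec : ∀ x : Γ, ∃ h ∈ H, ∃ z ∈ f.ker, x = h * z := by
    intro x
    have : f x ∈ H.map f := by rw [hmapH]; exact ⟨x, rfl⟩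
    obtain ⟨h, hh, e⟩ := this
    refine ⟨h, hh, h⁻¹ * x, ?_, by group⟩
    rw [MonoidHom.mem_ker, map_mul, map_inv, e, inv_mul_cancel]
  have hcomm : commutator Γ ≤ H := by
    rw [commutator_def, commutator_le]
    intro x _ y _
    obtain ⟨h1, hh1, z1, hz1, rfl⟩ := hdec x
    obtain ⟨h2, hh2, z2, hz2, rfl⟩ := hdec y
    rw [comm_mul_central (hc hz1) (hc hz2), commutatorElement_def]
    exact mul_mem (mul_mem (mul_mem hh1 hh2) (inv_mem hh1)) (inv_mem hh2)
  have htop : H = ⊤ := by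
    rw [eq_top_iff]
    intro x _
    obtain ⟨h, hh, z, hz, rfl⟩ := hdec x
    exact mul_mem hh (hcomm (hd hz))
  -- the quotient
  set q : Γ →* Γ ⧸ E := QuotientGroup.mk' E with hq
  have hqE : ∀ x ∈ E, q x = 1 := fun x hx => (QuotientGroup.eq_one_iff x).mpr hx
  set pt : ℕ → Fin n := fun i => if h : i + 2 < n then ⟨i + 2, h⟩ else p0 with hpt
  have hpt1 : ∀ i, i < n - 2 → (pt i).val = i + 2 := by
    intro i hi
    have : i + 2 < n := by omega
    simp [hpt, this]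
  have hpt0 : ∀ i, i < n - 2 → pt i ≠ p0 := by
    intro i hi e
    have h1 := hpt1 i hi
    rw [e, hp0] at h1
    omega
  have hpt2 : ∀ i, i < n - 2 → pt i ≠ p1 := by
    intro i hi e
    have h1 := hpt1 i hi
    rw [e, hp1] at h1
    omega
  set a : ℕ → Γ ⧸ E := fun i => q (s (pt i)) with ha
  have hrel : CRel a (n - 2) := by
    constructor
    · intro i hi
      show q (s (pt i)) ^ 3 = 1
      rw [← map_pow]
      exact hqE _ (hcube _ (hpt0 i hi) (hpt2 i hi))
    · intro i j hi hj hij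
      show (q (s (pt i)) * q (s (pt j))) ^ 2 = 1
      rw [← map_mul, ← map_pow]
      refine hqE _ (hsq _ _ (hpt0 i hi) (hpt2 i hi) (hpt0 j hj) (hpt2 j hj) ?_)
      intro e
      have h1 := hpt1 i hi
      have h2 := hpt1 j hj
      rw [e] at h1
      omega
  have hKtop : K a (n - 2) = ⊤ := by
    have e : a '' {i | i < n - 2} = q '' S := by
      ext y
      constructor
      · rintro ⟨i, hi, rfl⟩
        exact ⟨s (pt i), ⟨pt i, ⟨hpt0 i hi, hpt2 i hi⟩, rfl⟩, rfl⟩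
      · rintro ⟨_, ⟨k, ⟨h0, h1⟩, rfl⟩, rfl⟩
        have hk0 : k.val ≠ 0 := fun e => h0 (Fin.ext (by omega))
        have hk1 : k.val ≠ 1 := fun e => h1 (Fin.ext (by omega))
        have hk := k.2
        refine ⟨k.val - 2, ?_, ?_⟩
        · show k.val - 2 < n - 2
          omega
        · show q (s (pt (k.val - 2))) = q (s k)
          congr 2
          apply Fin.ext
          rw [hpt1 _ (by omega)]
          omega
    rw [K, e, ← MonoidHom.map_closure, ← hH, htop]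
    exact Subgroup.map_top_of_surjective _ (QuotientGroup.mk'_surjective E)
  obtain ⟨_, hcard⟩ := card_K hrel (n - 2) le_rfl
  rw [hKtop, Subgroup.card_top] at hcard
  have hP : 2 * Cfsg.Agent.Lib.GS1.Carm.P (n - 2) = n.factorial := by
    rw [Cfsg.Agent.Lib.GS1.Carm.two_mul_P, Nat.sub_add_cancel hn]
  have hNt : Nontrivial (Fin n) := Fin.nontrivial_iff_two_le.mpr hn
  have hA : Nat.card f.range = Cfsg.Agent.Lib.GS1.Carm.P (n - 2) := by
    have h1 := two_mul_nat_card_alternatingGroup (α := Fin n)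
    rw [Nat.card_perm, Nat.card_fin, ← hP] at h1
    rw [hr]
    exact Nat.eq_of_mul_eq_mul_left (by norm_num) h1
  have h1 : Nat.card f.ker * Nat.card f.range = Nat.card Γ := by
    rw [← Subgroup.index_ker, Subgroup.card_mul_index]
  have h2 : Nat.card E * Nat.card (Γ ⧸ E) = Nat.card Γ := Subgroup.card_mul_index E
  have hpos : 0 < Nat.card f.range := Nat.card_pos
  rw [hA] at h1 hpos
  have h3 : Nat.card f.ker * Cfsg.Agent.Lib.GS1.Carm.P (n - 2) ≤
      Nat.card E * Cfsg.Agent.Lib.GS1.Carm.P (n - 2) := by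
    rw [h1, ← h2]
    exact Nat.mul_le_mul_left _ hcard
  exact Nat.le_of_mul_le_mul_right h3 hpos

/-- Construction of the lifts of the Carmichael generators. -/
theorem exists_s [Finite Γ] (hn : 8 ≤ n) (f : Γ →* Perm (Fin n))
    (hr : f.range = alternatingGroup (Fin n)) (hc : f.ker ≤ center Γ)
    {p0 p1 : Fin n} (hp0 : p0.val = 0) (hp1 : p1.val = 1) :
    ∃ (E : Subgroup Γ) (s : Fin n → Γ), E ≤ f.ker ∧ Nat.card E ≤ 2 ∧
      (∀ k, k ≠ p0 → k ≠ p1 → f (s k) = tc p0 p1 k) ∧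
      (∀ k, k ≠ p0 → k ≠ p1 → s k ^ 3 ∈ E) ∧
      (∀ k l, k ≠ p0 → k ≠ p1 → l ≠ p0 → l ≠ p1 → k ≠ l → (s k * s l) ^ 2 ∈ E) := by
  classical
  obtain ⟨p2, hp2⟩ : ∃ p : Fin n, p.val = 2 := ⟨⟨2, by omega⟩, rfl⟩
  obtain ⟨p3, hp3⟩ : ∃ p : Fin n, p.val = 3 := ⟨⟨3, by omega⟩, rfl⟩
  obtain ⟨p4, hp4⟩ : ∃ p : Fin n, p.val = 4 := ⟨⟨4, by omega⟩, rfl⟩
  obtain ⟨p5, hp5⟩ : ∃ p : Fin n, p.val = 5 := ⟨⟨5, by omega⟩, rfl⟩
  have hne : ∀ a b : Fin n, a.val ≠ b.val → a ≠ b := fun a b h e => h (congrArg _ e)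
  have hsw : ∀ a b x : Fin n, x.val ≠ a.val → x.val ≠ b.val → swap a b x = x :=
    fun a b x h1 h2 => swap_apply_of_ne_of_ne (hne _ _ h1) (hne _ _ h2)
  have hsign : ∀ g, sign (f g) = 1 := by
    intro g
    have : f g ∈ f.range := ⟨g, rfl⟩
    rw [hr] at this
    exact this
  have hlift : ∀ σ : Perm (Fin n), sign σ = 1 → ∃ g, f g = σ := by
    intro σ hσ
    have : σ ∈ f.range := by rw [hr]; exact hσ
    exact this
  have hfix : ∀ k l : Fin n, k ≠ p0 → k ≠ p1 → l ≠ p0 → l ≠ p1 → k ≠ l →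
      ∃ h, (f h) p0 = p0 ∧ (f h) p1 = p1 ∧ (f h) k = p2 ∧ (f h) l = p3 := by
    intro k l hk0 hk1 hl0 hl1 hkl
    obtain ⟨h, h1, h2, h3, h4, h5⟩ := exists_fix (p0 := p0) (p1 := p1) (p2 := p2) (p3 := p3)
      (p4 := p4) (p5 := p5) (k := k) (l := l) hk0.symm hk1.symm hl0.symm hl1.symm hkl
      (hne _ _ (by omega)) (hne _ _ (by omega)) (hne _ _ (by omega)) (hne _ _ (by omega))
      (hne _ _ (by omega)) (hne _ _ (by omega)) (hne _ _ (by omega)) (hne _ _ (by omega))
      (hne _ _ (by omega)) (hne _ _ (by omega)) (hne _ _ (by omega)) (hne _ _ (by omega))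
      (hne _ _ (by omega)) (hne _ _ (by omega))
    obtain ⟨g, rfl⟩ := hlift h h1
    exact ⟨g, h2, h3, h4, h5⟩
  -- the two alternating subgroups
  set X0 : Fin n → Prop := fun x => x.val < 5 with hX0
  set XY : Fin n → Prop := fun x => 3 ≤ x.val with hXY
  have c5 : Nat.card {x // X0 x} = 5 := by
    have e : {x // X0 x} ≃ Fin 5 :=
      { toFun := fun x => ⟨x.1.val, x.2⟩
        invFun := fun i => ⟨⟨i.val, by have := i.2; omega⟩, i.2⟩
        left_inv := fun x => rfl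
        right_inv := fun i => rfl }
    rw [Nat.card_congr e, Nat.card_fin]
  have cY : 5 ≤ Nat.card {x // XY x} := by
    let φ : Fin 5 → {x // XY x} := fun i => ⟨⟨i.val + 3, by have := i.2; omega⟩, by
      show 3 ≤ i.val + 3
      omega⟩
    have hφ : Function.Injective φ := by
      intro i j e
      have h1 := congrArg (fun x => x.1.val) e
      simp only [φ] at h1
      exact Fin.ext (by omega)
    have := Nat.card_le_card_of_injective φ hφ
    rwa [Nat.card_fin] at this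
  have pX := perfect_Bs X0 c5.ge
  have pY := perfect_Bs XY cY
  have leX : Bs X0 ≤ f.range := by
    intro σ hσ
    exact hlift σ (mem_Bs_iff.mp hσ).1
  have leY : Bs XY ≤ f.range := by
    intro σ hσ
    exact hlift σ (mem_Bs_iff.mp hσ).1
  have hNt : Nontrivial {x // X0 x} := by
    rw [← Finite.one_lt_card_iff_nontrivial, c5]; norm_num
  have card60 : Nat.card (Bs X0) ∣ 60 := by
    rw [card_Bs, nat_card_alternatingGroup, c5]
    decide
  set L0 := liftL f (Bs X0) with hL0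
  set E : Subgroup Γ := L0 ⊓ f.ker with hE
  have hE2 : Nat.card E ≤ 2 := card_inf_ker_le_two hc leX pX card60
  have hmap : L0.map f = Bs X0 := map_liftL leX pX
  -- the element `s₀`
  have ht2 : tc p0 p1 p2 ∈ Bs X0 := by
    rw [mem_Bs_iff]
    refine ⟨tc_sign (hne _ _ (by omega)) (hne _ _ (by omega)), ?_⟩
    intro x hx
    have hx' : 5 ≤ x.val := not_lt.mp hx
    rw [tc, mul_apply, hsw p0 p2 x (by omega) (by omega), hsw p0 p1 x (by omega) (by omega)]
  set vb : Perm (Fin n) := swap p2 p3 * swap p3 p4 with hvb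
  have hv : vb ∈ Bs X0 := by
    rw [mem_Bs_iff]
    constructor
    · rw [hvb, map_mul, sign_swap (hne _ _ (by omega)), sign_swap (hne _ _ (by omega))]
      rfl
    · intro x hx
      have hx' : 5 ≤ x.val := not_lt.mp hx
      rw [hvb, mul_apply, hsw p3 p4 x (by omega) (by omega), hsw p2 p3 x (by omega) (by omega)]
  have hv0 : vb p0 = p0 := by
    rw [hvb, mul_apply, hsw p3 p4 p0 (by omega) (by omega), hsw p2 p3 p0 (by omega) (by omega)]
  have hv1 : vb p1 = p1 := by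
    rw [hvb, mul_apply, hsw p3 p4 p1 (by omega) (by omega), hsw p2 p3 p1 (by omega) (by omega)]
  have hv2 : vb p2 = p3 := by
    rw [hvb, mul_apply, hsw p3 p4 p2 (by omega) (by omega), swap_apply_left]
  obtain ⟨s0, hs0L, hs0⟩ : tc p0 p1 p2 ∈ L0.map f := by rw [hmap]; exact ht2
  obtain ⟨v, hvL, hvf⟩ : vb ∈ L0.map f := by rw [hmap]; exact hv
  -- lifts of even permutations fixing `p0, p1, p2` commute with `s0`
  have hcomm : ∀ u, (f u) p0 = p0 → (f u) p1 = p1 → (f u) p2 = p2 → u * s0 = s0 * u := by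
    intro u hu0 hu1 hu2
    refine commute_of_lift (A := Bs XY) hc leY pY ?_ ?_
    · rw [mem_Bs_iff]
      refine ⟨hsign u, ?_⟩
      intro x hx
      have hx' : x.val < 3 := not_le.mp hx
      have : x = p0 ∨ x = p1 ∨ x = p2 := by
        have : x.val = 0 ∨ x.val = 1 ∨ x.val = 2 := by omega
        rcases this with h | h | h
        · left; exact Fin.ext (by omega)
        · right; left; exact Fin.ext (by omega)
        · right; right; exact Fin.ext (by omega)
      rcases this with rfl | rfl | rfl <;> assumption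
    · intro a ha
      obtain ⟨_, ha'⟩ := mem_Bs_iff.mp ha
      have ha0 : a p0 = p0 := ha' _ (by show ¬ 3 ≤ p0.val; omega)
      have ha1 : a p1 = p1 := ha' _ (by show ¬ 3 ≤ p1.val; omega)
      have ha2 : a p2 = p2 := ha' _ (by show ¬ 3 ≤ p2.val; omega)
      have := tc_conj p2 a ha0 ha1
      rw [ha2, mul_inv_eq_iff_eq_mul] at this
      rw [hs0, this]
  -- the conjugators
  have hg : ∀ k : Fin n, ∃ g : Γ, k ≠ p0 → k ≠ p1 →
      (f g) p0 = p0 ∧ (f g) p1 = p1 ∧ (f g) p2 = k := by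
    intro k
    by_cases hk0 : k = p0
    · exact ⟨1, fun h => absurd hk0 h⟩
    by_cases hk1 : k = p1
    · exact ⟨1, fun _ h => absurd hk1 h⟩
    by_cases hk2 : k = p2
    · obtain ⟨h, h0, h1, h2, _⟩ := hfix k p3 hk0 hk1 (hne _ _ (by omega)) (hne _ _ (by omega))
        (by rw [hk2]; exact hne _ _ (by omega))
      refine ⟨h⁻¹, fun _ _ => ?_⟩
      rw [map_inv]
      exact ⟨by rw [Perm.inv_eq_iff_eq, h0], by rw [Perm.inv_eq_iff_eq, h1],
        by rw [Perm.inv_eq_iff_eq, h2]⟩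
    · obtain ⟨h, h0, h1, h2, _⟩ := hfix k p2 hk0 hk1 (hne _ _ (by omega)) (hne _ _ (by omega)) hk2
      refine ⟨h⁻¹, fun _ _ => ?_⟩
      rw [map_inv]
      exact ⟨by rw [Perm.inv_eq_iff_eq, h0], by rw [Perm.inv_eq_iff_eq, h1],
        by rw [Perm.inv_eq_iff_eq, h2]⟩
  choose g hgp using hg
  set s : Fin n → Γ := fun k => g k * s0 * (g k)⁻¹ with hs
  have hfs : ∀ k, k ≠ p0 → k ≠ p1 → f (s k) = tc p0 p1 k := by
    intro k hk0 hk1
    obtain ⟨h0, h1, h2⟩ := hgp k hk0 hk1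
    have := tc_conj p2 (f (g k)) h0 h1
    rw [h2] at this
    rw [← this, hs]
    simp only [map_mul, map_inv, hs0]
  refine ⟨E, s, inf_le_right, hE2, hfs, ?_, ?_⟩
  · intro k hk0 hk1
    have h3 : s0 ^ 3 ∈ f.ker := by
      rw [MonoidHom.mem_ker, map_pow, hs0]
      exact tc_cube (hne _ _ (by omega)) (hne _ _ (by omega)) (hne _ _ (by omega))
    have : s k ^ 3 = s0 ^ 3 := by
      rw [hs]
      simp only
      rw [conj_pow, mem_center_iff.mp (hc h3) (g k), mul_assoc, mul_inv_cancel, mul_one]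
    rw [this]
    exact ⟨pow_mem hs0L 3, h3⟩
  · intro k l hk0 hk1 hl0 hl1 hkl
    have hker : (s k * s l) ^ 2 ∈ f.ker := by
      rw [MonoidHom.mem_ker, map_pow, map_mul, hfs k hk0 hk1, hfs l hl0 hl1]
      exact tc_sq hk0.symm hk1.symm hl0.symm hl1.symm hkl (hne _ _ (by omega))
    refine ⟨?_, hker⟩
    obtain ⟨h, h0, h1, h2, h3⟩ := hfix k l hk0 hk1 hl0 hl1 hkl
    obtain ⟨gk0, gk1, gk2⟩ := hgp k hk0 hk1
    obtain ⟨gl0, gl1, gl2⟩ := hgp l hl0 hl1
    have e1 : h * s k * h⁻¹ = s0 := by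
      have hu := hcomm (h * g k)
        (by rw [map_mul, mul_apply, gk0, h0]) (by rw [map_mul, mul_apply, gk1, h1])
        (by rw [map_mul, mul_apply, gk2, h2])
      rw [hs]
      simp only
      calc h * (g k * s0 * (g k)⁻¹) * h⁻¹ = (h * g k) * s0 * (h * g k)⁻¹ := by group
        _ = s0 * (h * g k) * (h * g k)⁻¹ := by rw [hu]
        _ = s0 := by group
    have e2 : h * s l * h⁻¹ = v * s0 * v⁻¹ := by
      have hvinv : ∀ x, vb x = x → vb⁻¹ x = x := fun x hx => by rw [Perm.inv_eq_iff_eq, hx]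
      have hu := hcomm (v⁻¹ * (h * g l))
        (by rw [map_mul, map_mul, map_inv, hvf, mul_apply, mul_apply, gl0, h0, hvinv _ hv0])
        (by rw [map_mul, map_mul, map_inv, hvf, mul_apply, mul_apply, gl1, h1, hvinv _ hv1])
        (by rw [map_mul, map_mul, map_inv, hvf, mul_apply, mul_apply, gl2, h3,
          Perm.inv_eq_iff_eq, hv2])
      rw [hs]
      simp only
      calc h * (g l * s0 * (g l)⁻¹) * h⁻¹
          = v * ((v⁻¹ * (h * g l)) * s0) * (v⁻¹ * (h * g l))⁻¹ * v⁻¹ := by group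
        _ = v * (s0 * (v⁻¹ * (h * g l))) * (v⁻¹ * (h * g l))⁻¹ * v⁻¹ := by rw [hu]
        _ = v * s0 * v⁻¹ := by group
    have e3 : h * (s k * s l) ^ 2 * h⁻¹ = (s0 * (v * s0 * v⁻¹)) ^ 2 := by
      rw [← conj_pow, ← e2, ← e1]
      congr 1
      group
    have e4 : h * (s k * s l) ^ 2 * h⁻¹ = (s k * s l) ^ 2 := by
      rw [mem_center_iff.mp (hc hker) h, mul_assoc, mul_inv_cancel, mul_one]
    rw [← e4, e3]
    exact pow_mem (mul_mem hs0L (mul_mem (mul_mem hvL hs0L) (inv_mem hvL))) 2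

/-- Schur: stem extensions of `A_n`, `n ≥ 8`, have kernel of order at most `2`. -/
theorem card_ker_le_two_of_ge_eight [Finite Γ] (hn : 8 ≤ n) (f : Γ →* Perm (Fin n))
    (hr : f.range = alternatingGroup (Fin n)) (hc : f.ker ≤ center Γ) (hd : f.ker ≤ commutator Γ) :
    Nat.card f.ker ≤ 2 := by
  obtain ⟨p0, hp0⟩ : ∃ p : Fin n, p.val = 0 := ⟨⟨0, by omega⟩, rfl⟩
  obtain ⟨p1, hp1⟩ : ∃ p : Fin n, p.val = 1 := ⟨⟨1, by omega⟩, rfl⟩
  obtain ⟨E, s, hE, hE2, h1, h2, h3⟩ := exists_s hn f hr hc hp0 hp1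
  exact (final_count f hr hc hd hp0 hp1 (by omega) E hE s h1 h2 h3).trans hE2

end Cfsg.Agent.Lib.SchurAlt
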