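import Cfsg.Agent.Lib.GS1.Carm
import Mathlib

/-! Carmichael's generators `(0 1 k)` of the alternating group: the order bound from the relations
`a i ^ 3 = 1`, `(a i * a j) ^ 2 = 1`. -/

set_option autoImplicit false

namespace Cfsg.Agent.Lib.SchurAlt

open Subgroup

variable {G : Type*} [Group G]

/-- Carmichael's relations. -/
structure CRel (a : ℕ → G) (m : ℕ) : Prop where
  cube : ∀ i, i < m → a i ^ 3 = 1
  sq : ∀ i j, i < m → j < m → i ≠ j → (a i * a j) ^ 2 = 1

/-- The subgroup generated by the first `t` generators. -/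
def K (a : ℕ → G) (t : ℕ) : Subgroup G := closure (a '' {i | i < t})

/-- Coset representatives. -/
noncomputable def rep (a : ℕ → G) (t j : ℕ) : G :=
  if j < t then a t * (a j)⁻¹ else if j = t then 1 else if j = t + 1 then a t else (a t)⁻¹

/-- Membership in the union of the cosets. -/
def InC (a : ℕ → G) (t : ℕ) (g : G) : Prop := ∃ k ∈ K a t, ∃ j, j ≤ t + 2 ∧ g = k * rep a t j

theorem rel_swap {x y : G} (h : (x * y) ^ 2 = 1) : y * x = x⁻¹ * y⁻¹ := by
  rw [pow_two] at h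
  have h1 : x⁻¹ * (x * y * (x * y)) * y⁻¹ = x⁻¹ * 1 * y⁻¹ := by rw [h]
  have h2 : x⁻¹ * (x * y * (x * y)) * y⁻¹ = y * x := by group
  rw [← h2, h1]; group

theorem inv_eq_sq {x : G} (h : x ^ 3 = 1) : x⁻¹ = x * x := by
  apply inv_eq_of_mul_eq_one_right
  rw [← mul_assoc, ← pow_two, ← pow_succ]
  exact h

theorem sq_inv_eq {x : G} (h : x ^ 3 = 1) : x⁻¹ * x⁻¹ = x := by
  rw [inv_eq_sq h]
  have : x * x * (x * x) = x ^ 3 * x := by simp only [pow_succ, pow_zero, one_mul, mul_assoc]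
  rw [this, h, one_mul]

/-- `c⁻¹ x = x (c x⁻¹)`. -/
theorem id2 {x c : G} (hx : x ^ 3 = 1) (hxc : (c * x) ^ 2 = 1) : c⁻¹ * x = x * (c * x⁻¹) := by
  have h1 := rel_swap hxc
  have h2 : x * (c * x⁻¹) = x * c * x⁻¹ := by group
  rw [h2, h1, mul_assoc, sq_inv_eq hx]

/-- `(c x⁻¹) c = x⁻¹ (c x⁻¹)`. -/
theorem id3 {x c : G} (hx : x ^ 3 = 1) (hc : c ^ 3 = 1) (hxc : (x * c) ^ 2 = 1) (hcx : (c * x) ^ 2 = 1) :
    c * x⁻¹ * c = x⁻¹ * (c * x⁻¹) := by
  have h1 := rel_swap hxc
  have h2 := rel_swap hcx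
  calc c * x⁻¹ * c = c * (x * x) * c := by rw [inv_eq_sq hx]
    _ = (c * x) * (x * c) := by group
    _ = (x⁻¹ * c⁻¹) * (c⁻¹ * x⁻¹) := by rw [h1, h2]
    _ = x⁻¹ * (c⁻¹ * c⁻¹) * x⁻¹ := by group
    _ = x⁻¹ * c * x⁻¹ := by rw [sq_inv_eq hc]
    _ = x⁻¹ * (c * x⁻¹) := by group

/-- `(c x⁻¹) y = (x⁻¹ y) (c x⁻¹)`. -/
theorem id4 {x y c : G} (hx : x ^ 3 = 1) (hyx : (x * y) ^ 2 = 1) (hcy : (c * y) ^ 2 = 1) (hxc : (x * c) ^ 2 = 1) :
    c * x⁻¹ * y = x⁻¹ * y * (c * x⁻¹) := by
  have h1 := rel_swap hyx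
  have h2 := rel_swap hcy
  have h3 := rel_swap hxc
  have h4 : x * y⁻¹ = x⁻¹ * y * x := by
    have e : x * y * x = y⁻¹ := by
      calc x * y * x = x * (y * x) := by group
        _ = x * (x⁻¹ * y⁻¹) := by rw [h1]
        _ = y⁻¹ := by group
    rw [← e, inv_eq_sq hx]
    have e3 : x * (x * y * x) = x * x * y * x := by group
    rw [e3]
  calc c * x⁻¹ * y = c * (x⁻¹ * y * x) * x⁻¹ := by group
    _ = c * (x * y⁻¹) * x⁻¹ := by rw [h4]
    _ = (c * x) * y⁻¹ * x⁻¹ := by group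
    _ = (x⁻¹ * c⁻¹) * y⁻¹ * x⁻¹ := by rw [h3]
    _ = x⁻¹ * (c⁻¹ * y⁻¹) * x⁻¹ := by group
    _ = x⁻¹ * (y * c) * x⁻¹ := by rw [h2]
    _ = x⁻¹ * y * (c * x⁻¹) := by group

section step

variable {a : ℕ → G} {m t : ℕ}

theorem a_mem_K {i : ℕ} (hi : i < t) : a i ∈ K a t := subset_closure ⟨i, hi, rfl⟩

theorem InC_step (h : CRel a m) (ht : t < m) {g : G} (hg : InC a t g) (i : ℕ) (hi : i ≤ t) :
    InC a t (g * a i) := by
  classical
  obtain ⟨k, hk, j, hj, rfl⟩ := hg
  have hc3 := h.cube t ht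
  suffices hs : ∃ k' ∈ K a t, ∃ j', j' ≤ t + 2 ∧ rep a t j * a i = k' * rep a t j' by
    obtain ⟨k', hk', j', hj', e⟩ := hs
    exact ⟨k * k', mul_mem hk hk', j', hj', by rw [mul_assoc, e]; group⟩
  have r1 : rep a t t = 1 := by simp [rep]
  have r2 : rep a t (t + 1) = a t := by simp [rep]
  have r3 : rep a t (t + 2) = (a t)⁻¹ := by simp [rep]
  have r4 : ∀ l, l < t → rep a t l = a t * (a l)⁻¹ := fun l hl => by simp [rep, hl]
  rcases Nat.lt_or_ge j t with hjt | hjt
  · -- `rep = c * a j⁻¹`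
    rw [r4 j hjt]
    rcases Nat.lt_or_ge i t with hit | hit
    · by_cases hij : i = j
      · subst hij
        refine ⟨1, one_mem _, t + 1, by omega, ?_⟩
        rw [r2]; group
      · refine ⟨(a j)⁻¹ * a i, mul_mem (inv_mem (a_mem_K hjt)) (a_mem_K hit), j, by omega, ?_⟩
        rw [r4 j hjt]
        exact id4 (h.cube j (by omega)) (h.sq j i (by omega) (by omega) (Ne.symm hij)) (h.sq t i ht (by omega) (by omega))
          (h.sq j t (by omega) ht (by omega))
    · have hit' : i = t := by omega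
      rw [hit']
      refine ⟨(a j)⁻¹, inv_mem (a_mem_K hjt), j, by omega, ?_⟩
      rw [r4 j hjt]
      exact id3 (h.cube j (by omega)) hc3 (h.sq j t (by omega) ht (by omega)) (h.sq t j ht (by omega) (by omega))
  · have hj3 : j = t ∨ j = t + 1 ∨ j = t + 2 := by omega
    rcases hj3 with e | e | e
    · rw [e, r1]
      rcases Nat.lt_or_ge i t with hit | hit
      · exact ⟨a i, a_mem_K hit, t, by omega, by rw [r1]; group⟩
      · have hit' : i = t := by omega
        rw [hit']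
        exact ⟨1, one_mem _, t + 1, by omega, by rw [r2]⟩
    · rw [e, r2]
      rcases Nat.lt_or_ge i t with hit | hit
      · refine ⟨(a i)⁻¹, inv_mem (a_mem_K hit), t + 2, by omega, ?_⟩
        rw [r3]
        exact rel_swap (h.sq i t (by omega) ht (by omega))
      · have hit' : i = t := by omega
        rw [hit']
        refine ⟨1, one_mem _, t + 2, by omega, ?_⟩
        rw [r3, one_mul, inv_eq_sq hc3]
    · rw [e, r3]
      rcases Nat.lt_or_ge i t with hit | hit
      · refine ⟨a i, a_mem_K hit, i, by omega, ?_⟩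
        rw [r4 i hit]
        exact id2 (h.cube i (by omega)) (h.sq t i ht (by omega) (by omega))
      · have hit' : i = t := by omega
        rw [hit']
        refine ⟨1, one_mem _, t, by omega, ?_⟩
        rw [r1]; group

theorem K_succ_sub (h : CRel a m) (ht : t < m) {g : G} (hg : g ∈ K a (t + 1)) : InC a t g := by
  unfold K at hg
  induction hg using Subgroup.closure_induction_right with
  | one => exact ⟨1, one_mem _, t, by omega, by simp [rep]⟩
  | mul_right x y _ hy ih =>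
    obtain ⟨i, hi, rfl⟩ := hy
    exact InC_step h ht ih i (by simpa [Nat.lt_succ_iff] using hi)
  | mul_inv_cancel x y _ hy ih =>
    obtain ⟨i, hi, rfl⟩ := hy
    have hi' : i ≤ t := by simpa [Nat.lt_succ_iff] using hi
    rw [inv_eq_sq (h.cube i (by omega)), ← mul_assoc]
    exact InC_step h ht (InC_step h ht ih i hi') i hi'

/-- Coset enumeration: the subgroups generated by the first generators are finite of bounded order. -/
theorem card_K (h : CRel a m) (t : ℕ) (ht : t ≤ m) :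
    Finite (K a t) ∧ Nat.card (K a t) ≤ Cfsg.Agent.Lib.GS1.Carm.P t := by
  classical
  induction t with
  | zero =>
    have : K a 0 = ⊥ := by
      unfold K
      have : a '' {i | i < 0} = ∅ := by simp
      rw [this, Subgroup.closure_empty]
    rw [this]
    exact ⟨inferInstance, by simp [Cfsg.Agent.Lib.GS1.Carm.P]⟩
  | succ t ih =>
    obtain ⟨hf, hc⟩ := ih (by omega)
    have hc1 : ∀ y : K a (t + 1), ∃ p : K a t × Fin (t + 3), (y : G) = p.1 * rep a t p.2 := by
      intro y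
      obtain ⟨k, hk, j, hj, e⟩ := K_succ_sub h (by omega) y.2
      exact ⟨(⟨k, hk⟩, ⟨j, by omega⟩), e⟩
    choose f hf' using hc1
    have hinj : Function.Injective f := by
      intro x y hxy
      apply Subtype.ext
      rw [hf' x, hf' y, hxy]
    refine ⟨Finite.of_injective f hinj, ?_⟩
    have h1 := Nat.card_le_card_of_injective f hinj
    rw [Nat.card_prod, Nat.card_eq_fintype_card (α := Fin (t + 3)), Fintype.card_fin] at h1
    calc Nat.card (K a (t + 1)) ≤ Nat.card (K a t) * (t + 3) := h1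
      _ ≤ Cfsg.Agent.Lib.GS1.Carm.P t * (t + 3) := Nat.mul_le_mul_right _ hc
      _ = Cfsg.Agent.Lib.GS1.Carm.P (t + 1) := by simp only [Cfsg.Agent.Lib.GS1.Carm.P]; ring

end step

end Cfsg.Agent.Lib.SchurAlt
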