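import Cfsg.Agent.Lib.Transfer.Basic
import Mathlib

/-! Stem extensions of groups of order dividing `60`: the kernel has order at most `2`. -/

set_option autoImplicit false

namespace Cfsg.Agent.Lib.SchurAlt

open Subgroup
open scoped commutatorElement IsMulCommutative

/-- Central commutators lying in a Sylow subgroup lie in its commutator subgroup. -/
theorem central_comm_mem_sylow_comm {Γ : Type*} [Group Γ] [Finite Γ] {p : ℕ} [hp : Fact p.Prime]
    (S : Sylow p Γ) {z : Γ} (hzc : z ∈ center Γ) (hzd : z ∈ commutator Γ)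
    (hzS : z ∈ (S : Subgroup Γ)) :
    (⟨z, hzS⟩ : (S : Subgroup Γ)) ∈ commutator (S : Subgroup Γ) := by
  classical
  let φ : (S : Subgroup Γ) →* Abelianization (S : Subgroup Γ) := Abelianization.of
  have h1 : MonoidHom.transfer φ z = φ ⟨z, hzS⟩ ^ (S : Subgroup Γ).index :=
    Cfsg.Agent.Lib.Transfer.transfer_eq_pow_of_central φ ⟨z, hzS⟩ hzc
  have h2 : MonoidHom.transfer φ z = 1 := Abelianization.commutator_subset_ker _ hzd
  rw [h2] at h1
  obtain ⟨k, hk⟩ := S.isPGroup' ⟨z, hzS⟩
  have h3 : φ ⟨z, hzS⟩ ^ p ^ k = 1 := by rw [← map_pow, hk, map_one]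
  have hcop : Nat.Coprime (p ^ k) (S : Subgroup Γ).index :=
    Nat.Coprime.pow_left k ((Nat.Prime.coprime_iff_not_dvd hp.out).2 S.not_dvd_index)
  have h4 : orderOf (φ ⟨z, hzS⟩) = 1 :=
    Nat.eq_one_of_dvd_coprimes hcop (orderOf_dvd_of_pow_eq_one h3) (orderOf_dvd_of_pow_eq_one h1.symm)
  have h5 : φ ⟨z, hzS⟩ = 1 := orderOf_eq_one_iff.mp h4
  rw [← MonoidHom.mem_ker, Abelianization.ker_of] at h5
  exact h5

/-- A 2-group with a central subgroup with quotient of order dividing four has a commutator
subgroup of order at most two. -/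
theorem card_commutator_le_two {S Q : Type*} [Group S] [Finite S] [Group Q] (g : S →* Q)
    (hker : g.ker ≤ center S) (hcard : Nat.card g.range ∣ 4) :
    Nat.card (commutator S) ≤ 2 := by
  classical
  haveI hRfin : Finite g.range := Finite.of_surjective g.rangeRestrict g.rangeRestrict_surjective
  by_cases hcyc : IsCyclic g.range
  · have hcomm := MonoidHom.isMulCommutative_of_isCyclic_of_ker_le_center g.rangeRestrict
      (by rw [MonoidHom.ker_rangeRestrict]; exact hker)
    have : commutator S = ⊥ := by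
      rw [eq_bot_iff, _root_.commutator_def, Subgroup.commutator_le]
      intro x _ y _
      rw [mem_bot, commutatorElement_eq_one_iff_commute]
      exact hcomm.is_comm.comm x y
    rw [this, Subgroup.card_bot]
    omega
  have hR4 : Nat.card g.range = 4 := by
    have h1 : Nat.card g.range ≤ 4 := Nat.le_of_dvd (by norm_num) hcard
    have hpos : 0 < Nat.card g.range := Nat.card_pos
    interval_cases hc : Nat.card g.range
    · haveI : Subsingleton g.range := (Nat.card_eq_one_iff_unique.mp hc).1
      exact absurd isCyclic_of_subsingleton hcyc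
    · exact absurd (isCyclic_of_prime_card (p := 2) hc) hcyc
    · omega
    · rfl
  set R := g.range with hRdef
  have hsq : ∀ u : R, u ^ 2 = 1 := by
    intro u
    have h1 : orderOf u ∣ 4 := hR4 ▸ orderOf_dvd_natCard u
    have h2 : orderOf u ≠ 4 := fun h => hcyc (isCyclic_of_orderOf_eq_card u (by rw [h, hR4]))
    have h3 : orderOf u ∈ Nat.divisors 4 := Nat.mem_divisors.mpr ⟨h1, by norm_num⟩
    have h4 : Nat.divisors 4 = {1, 2, 4} := by decide
    rw [h4] at h3
    simp only [Finset.mem_insert, Finset.mem_singleton] at h3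
    rcases h3 with h3 | h3 | h3
    · have := orderOf_eq_one_iff.mp h3
      rw [this, one_pow]
    · rw [← h3, pow_orderOf_eq_one]
    · exact absurd h3 h2
  have hinv : ∀ u : R, u⁻¹ = u := fun u => inv_eq_of_mul_eq_one_left (by rw [← pow_two, hsq])
  have hcomm : ∀ u v : R, u * v = v * u := by
    intro u v
    have := hinv (u * v)
    rw [mul_inv_rev, hinv, hinv] at this
    exact this.symm
  haveI : Nontrivial R := by
    rw [← Finite.one_lt_card_iff_nontrivial, hR4]; norm_num
  obtain ⟨p, hp1⟩ := exists_ne (1 : R)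
  obtain ⟨q, hq⟩ : ∃ q : R, q ∉ zpowers p := by
    by_contra hcon
    push Not at hcon
    exact hcyc ⟨⟨p, hcon⟩⟩
  have hq1 : q ≠ 1 := fun h => hq (h ▸ one_mem _)
  have hqp : q ≠ p := fun h => hq (h ▸ mem_zpowers p)
  have hall : ∀ u : R, u = 1 ∨ u = p ∨ u = q ∨ u = p * q := by
    letI : Fintype R := Fintype.ofFinite _
    have hc : ({1, p, q, p * q} : Finset R).card = 4 := by
      rw [Finset.card_insert_of_notMem, Finset.card_insert_of_notMem, Finset.card_insert_of_notMem,
        Finset.card_singleton]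
      · simp only [Finset.mem_singleton]
        intro h
        exact hp1 (by simpa using (mul_eq_right.mp h.symm))
      · simp only [Finset.mem_insert, Finset.mem_singleton, not_or]
        refine ⟨hqp.symm, ?_⟩
        intro h
        exact hq1 (by simpa using (mul_eq_left.mp h.symm))
      · simp only [Finset.mem_insert, Finset.mem_singleton, not_or]
        refine ⟨hp1.symm, hq1.symm, ?_⟩
        intro h
        apply hq
        have : q = p⁻¹ := by
          rw [eq_inv_iff_mul_eq_one, hcomm]
          exact h.symm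
        rw [this]
        exact inv_mem (mem_zpowers p)
    have huniv := Finset.eq_univ_of_card ({1, p, q, p * q} : Finset R)
      (by rw [hc, Fintype.card_eq_nat_card, hR4])
    intro u
    have hu : u ∈ ({1, p, q, p * q} : Finset R) := by rw [huniv]; exact Finset.mem_univ u
    simpa using hu
  obtain ⟨a, ha⟩ := p.2
  obtain ⟨b, hb⟩ := q.2
  have hga : g a = (p : Q) := ha
  have hgb : g b = (q : Q) := hb
  have hdecomp : ∀ x : S, ∃ (i j : ℕ), ∃ c ∈ g.ker, x = a ^ i * b ^ j * c := by
    intro x
    have hx : (⟨g x, ⟨x, rfl⟩⟩ : R) = 1 ∨ (⟨g x, ⟨x, rfl⟩⟩ : R) = p ∨ (⟨g x, ⟨x, rfl⟩⟩ : R) = q ∨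
        (⟨g x, ⟨x, rfl⟩⟩ : R) = p * q := hall _
    have hker' : ∀ (i j : ℕ), g x = g a ^ i * g b ^ j →
        ∃ (i j : ℕ), ∃ c ∈ g.ker, x = a ^ i * b ^ j * c := by
      intro i j h
      refine ⟨i, j, (a ^ i * b ^ j)⁻¹ * x, ?_, by group⟩
      rw [MonoidHom.mem_ker, map_mul, map_inv, map_mul, map_pow, map_pow, h]
      simp
    rcases hx with hx | hx | hx | hx
    · exact hker' 0 0 (by simpa using congrArg Subtype.val hx)
    · exact hker' 1 0 (by simpa [hga] using congrArg Subtype.val hx)
    · exact hker' 0 1 (by simpa [hgb] using congrArg Subtype.val hx)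
    · exact hker' 1 1 (by simpa [hga, hgb] using congrArg Subtype.val hx)
  have hcentral : ∀ c ∈ g.ker, ∀ y : S, c * y = y * c := by
    intro c hc y
    exact ((mem_center_iff.mp (hker hc)) y).symm
  set ε := ⁅a, b⁆ with hε
  have hεker : ε ∈ g.ker := by
    rw [MonoidHom.mem_ker, hε, map_commutatorElement, commutatorElement_eq_one_iff_commute, hga, hgb]
    exact congrArg Subtype.val (hcomm p q)
  have ha2 : a ^ 2 ∈ g.ker := by
    rw [MonoidHom.mem_ker, map_pow, hga]
    exact congrArg Subtype.val (hsq p)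
  have hε2 : ε ^ 2 = 1 := by
    have h1 : a * b * a⁻¹ = ε * b := by
      show a * b * a⁻¹ = (a * b * a⁻¹ * b⁻¹) * b
      group
    have h2 : a * ε = ε * a := (hcentral ε hεker a).symm
    have h3 : a ^ 2 * b * (a ^ 2)⁻¹ = ε ^ 2 * b := by
      calc a ^ 2 * b * (a ^ 2)⁻¹ = a * (a * b * a⁻¹) * a⁻¹ := by rw [pow_two]; group
        _ = a * (ε * b) * a⁻¹ := by rw [h1]
        _ = ε * (a * b * a⁻¹) := by rw [← mul_assoc a ε b, h2]; simp only [mul_assoc]
        _ = ε * (ε * b) := by rw [h1]
        _ = ε ^ 2 * b := by rw [pow_two, mul_assoc]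
    have h4 : a ^ 2 * b * (a ^ 2)⁻¹ = b := by
      rw [hcentral _ ha2 b, mul_inv_cancel_right]
    rw [h4] at h3
    exact (mul_eq_right.mp h3.symm)
  set W := zpowers ε with hW
  haveI hWn : W.Normal := by
    constructor
    intro n hn y
    obtain ⟨k, rfl⟩ := mem_zpowers_iff.mp hn
    have : y * ε ^ k * y⁻¹ = ε ^ k := by
      have hc0 : Commute ε y := hcentral ε hεker y
      have hc : Commute y (ε ^ k) := (hc0.zpow_left k).symm
      rw [hc.eq]; group
    rw [this]
    exact zpow_mem (mem_zpowers ε) k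
  have hcW : commutator S ≤ W := by
    rw [_root_.commutator_def, Subgroup.commutator_le]
    intro x _ y _
    let ψ := QuotientGroup.mk' W
    have hAB : Commute (ψ a) (ψ b) := by
      rw [← commutatorElement_eq_one_iff_commute, ← map_commutatorElement, ← hε]
      exact (QuotientGroup.eq_one_iff _).2 (mem_zpowers ε)
    have hC : ∀ c ∈ g.ker, ∀ u : S ⧸ W, Commute (ψ c) u := by
      intro c hc u
      obtain ⟨v, rfl⟩ := QuotientGroup.mk'_surjective W u
      rw [Commute, SemiconjBy, ← map_mul, ← map_mul, hcentral c hc v]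
    obtain ⟨i, j, c, hc, rfl⟩ := hdecomp x
    obtain ⟨k, l, d, hd, rfl⟩ := hdecomp y
    have hgoal : Commute (ψ (a ^ i * b ^ j * c)) (ψ (a ^ k * b ^ l * d)) := by
      simp only [map_mul, map_pow]
      refine Commute.mul_left (Commute.mul_left ?_ ?_) (hC c hc _)
      · refine Commute.mul_right (Commute.mul_right ?_ ?_) ((hC d hd _).symm)
        · exact Commute.pow_pow_self _ _ _
        · exact hAB.pow_pow _ _
      · refine Commute.mul_right (Commute.mul_right ?_ ?_) ((hC d hd _).symm)
        · exact (hAB.pow_pow _ _).symm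
        · exact Commute.pow_pow_self _ _ _
    rw [← commutatorElement_eq_one_iff_commute, ← map_commutatorElement] at hgoal
    exact (QuotientGroup.eq_one_iff _).1 hgoal
  have hWcard : Nat.card W ≤ 2 := by
    rw [hW, Nat.card_zpowers]
    exact Nat.le_of_dvd (by norm_num) (orderOf_dvd_of_pow_eq_one hε2)
  exact (Subgroup.card_le_of_le hcW).trans hWcard

theorem comm_bot_of_cyclic_range {S Q : Type*} [Group S] [Group Q] (g : S →* Q)
    (hker : g.ker ≤ center S) (hcyc : IsCyclic g.range) : commutator S = ⊥ := by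
  have hcomm := MonoidHom.isMulCommutative_of_isCyclic_of_ker_le_center g.rangeRestrict
    (by rw [MonoidHom.ker_rangeRestrict]; exact hker)
  rw [eq_bot_iff, _root_.commutator_def, Subgroup.commutator_le]
  intro x _ y _
  rw [mem_bot, commutatorElement_eq_one_iff_commute]
  exact hcomm.is_comm.comm x y

/-- Stem extensions of groups of order dividing `60` have kernels of order at most `2`. -/
theorem card_ker_le_two {Γ H : Type*} [Group Γ] [Finite Γ] [Group H] (f : Γ →* H)
    (hc : f.ker ≤ center Γ) (hd : f.ker ≤ commutator Γ) (h60 : Nat.card f.range ∣ 60) :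
    Nat.card f.ker ≤ 2 := by
  classical
  have hcen : ∀ (S : Subgroup Γ), (f.comp S.subtype).ker ≤ center S := by
    intro S x hx
    have hx' : (x : Γ) ∈ f.ker := hx
    rw [mem_center_iff]
    intro y
    apply Subtype.ext
    exact (mem_center_iff.mp (hc hx')) y
  have hdiv : ∀ (S : Subgroup Γ), Nat.card (f.comp S.subtype).range ∣ 60 := by
    intro S
    refine dvd_trans (Subgroup.card_dvd_of_le ?_) h60
    rintro _ ⟨x, rfl⟩
    exact ⟨x, rfl⟩
  have hpow : ∀ {p : ℕ} [Fact p.Prime] (S : Sylow p Γ), ∃ k : ℕ,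
      Nat.card (f.comp (S : Subgroup Γ).subtype).range = p ^ k := by
    intro p _ S
    haveI : Finite (f.comp (S : Subgroup Γ).subtype).range :=
      Finite.of_surjective _ (f.comp (S : Subgroup Γ).subtype).rangeRestrict_surjective
    exact IsPGroup.iff_card.mp (S.isPGroup'.of_surjective _ (f.comp (S : Subgroup Γ).subtype).rangeRestrict_surjective)
  have hodd : ∀ {p : ℕ} [hp : Fact p.Prime], p ≠ 2 → ∀ S : Sylow p Γ,
      commutator (S : Subgroup Γ) = ⊥ := by
    intro p hp hp2 S
    obtain ⟨k, hk⟩ := hpow S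
    have h1 := hdiv (S : Subgroup Γ)
    rw [hk] at h1
    have hk2 : k < 2 := by
      by_contra hge
      have h2 : p ^ 2 ∣ 60 := (pow_dvd_pow p (by omega)).trans h1
      have h3 : p ^ 2 ≤ 60 := Nat.le_of_dvd (by norm_num) h2
      have h4 : p ≤ 7 := by nlinarith
      have h5 := hp.out
      interval_cases p <;> revert h5 hp2 h2 <;> norm_num
    apply comm_bot_of_cyclic_range (f.comp (S : Subgroup Γ).subtype) (hcen _)
    interval_cases k
    · rw [pow_zero] at hk
      exact @isCyclic_of_subsingleton _ _ (Nat.card_eq_one_iff_unique.mp hk).1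
    · rw [pow_one] at hk
      exact isCyclic_of_prime_card hk
  have hpg : IsPGroup 2 f.ker := by
    have hne : Nat.card f.ker ≠ 0 := Nat.card_pos.ne'
    have := Nat.eq_prime_pow_of_unique_prime_dvd (p := 2) hne (by
      intro d hdp hdd
      by_contra hd2
      haveI : Fact d.Prime := ⟨hdp⟩
      obtain ⟨z, hz⟩ := exists_prime_orderOf_dvd_card' d hdd
      have hzo : orderOf (z : Γ) = d := by rw [Subgroup.orderOf_coe, hz]
      have hzp : IsPGroup d (zpowers (z : Γ)) := by
        rintro ⟨y, i, rfl⟩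
        refine ⟨1, Subtype.ext ?_⟩
        show ((z : Γ) ^ i) ^ d ^ 1 = 1
        rw [← zpow_natCast, ← zpow_mul, mul_comm, zpow_mul, zpow_natCast, pow_one, ← hzo,
          pow_orderOf_eq_one, one_zpow]
      obtain ⟨S, hS⟩ := hzp.exists_le_sylow
      have hzS : (z : Γ) ∈ (S : Subgroup Γ) := hS (mem_zpowers _)
      have h1 := central_comm_mem_sylow_comm S (hc z.2) (hd z.2) hzS
      rw [hodd hd2 S, mem_bot] at h1
      have h2 : (z : Γ) = 1 := congrArg Subtype.val h1
      rw [h2, orderOf_one] at hzo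
      exact hdp.one_lt.ne hzo)
    exact IsPGroup.of_card this
  obtain ⟨S⟩ : Nonempty (Sylow 2 Γ) := inferInstance
  haveI hkn : f.ker.Normal := inferInstance
  have hle : f.ker ≤ (S : Subgroup Γ) := by
    have h1 : IsPGroup 2 ↥(f.ker ⊔ (S : Subgroup Γ)) := hpg.to_sup_of_normal_left S.isPGroup'
    have h2 := S.is_maximal' h1 le_sup_right
    rw [← h2]
    exact le_sup_left
  have hcard : Nat.card (commutator (S : Subgroup Γ)) ≤ 2 := by
    refine card_commutator_le_two (f.comp (S : Subgroup Γ).subtype) (hcen _) ?_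
    obtain ⟨k, hk⟩ := hpow S
    have h1 := hdiv (S : Subgroup Γ)
    rw [hk] at h1 ⊢
    have hk2 : k ≤ 2 := by
      by_contra hge
      have h2 : 2 ^ 3 ∣ 60 := (pow_dvd_pow 2 (by omega)).trans h1
      revert h2; norm_num
    exact (pow_dvd_pow 2 hk2).trans (by norm_num)
  refine le_trans (Nat.card_le_card_of_injective
    (fun z : f.ker => (⟨⟨z, hle z.2⟩, central_comm_mem_sylow_comm S (hc z.2) (hd z.2) (hle z.2)⟩ :
      commutator (S : Subgroup Γ))) ?_) hcard
  intro x y hxy
  have := congrArg (fun w : commutator (S : Subgroup Γ) => ((w : (S : Subgroup Γ)) : Γ)) hxy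
  exact Subtype.ext this

end Cfsg.Agent.Lib.SchurAlt
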